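import Mathlib
import Cfsg.Agent.Lib.Helper80.FP.NFDefs
import Cfsg.Agent.Lib.Helper22.FP.ETools
import Cfsg.Agent.Lib.Helper22.CharP
import Cfsg.Agent.Lib.Helper22.Comp
import Cfsg.Agent.Lib.Helper22.Fstar
import Cfsg.Agent.Lib.Helper30.Bender
import Cfsg.Agent.Lib.Helper55.Cores
import Cfsg.Agent.S0016
import Cfsg.Agent.S0044

/-!
# S3814 package P10-B: `PkgCoreB` (helper22, following helper80's proof, team note 3860)
-/

set_option autoImplicit false
set_option maxHeartbeats 1600000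

namespace Cfsg.Agent.Lib.Helper22.FP

open Cfsg.Agent.Lib.Helper80.FP

universe u

/-- `F(Λ) ≤ O_q(Λ) O_r(Λ)` for a `{q, r}`-group `Λ`. -/
theorem fitting_le_sup_two {Λ : Type u} [Group Λ] [Finite Λ] {q r : ℕ}
    (hcard : ∀ ℓ : ℕ, ℓ.Prime → ℓ ∣ Nat.card Λ → ℓ = q ∨ ℓ = r) :
    Cfsg.fittingSubgroup Λ ≤ Cfsg.pCore q Λ ⊔ Cfsg.pCore r Λ := by
  have hnil : Group.IsNilpotent (Cfsg.fittingSubgroup Λ) :=
    Cfsg.Agent.Lib.Helper22.fittingSubgroup_nilpotent Λ
  have hFn : (Cfsg.fittingSubgroup Λ).Normal := Cfsg.Agent.Lib.Helper22.fittingSubgroup_normal' Λ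
  have htop : (Cfsg.pCore q Λ ⊔ Cfsg.pCore r Λ).subgroupOf (Cfsg.fittingSubgroup Λ) = ⊤ := by
    apply Cfsg.Agent.Lib.Helper30.eq_top_of_forall_sylow_le
    intro ℓ hℓ S
    have hSn : (S : Subgroup (Cfsg.fittingSubgroup Λ)).Normal := inferInstance
    have hSc : (S : Subgroup (Cfsg.fittingSubgroup Λ)).Characteristic :=
      Sylow.characteristic_of_normal S hSn
    have hS'n : ((S : Subgroup (Cfsg.fittingSubgroup Λ)).map
        (Cfsg.fittingSubgroup Λ).subtype).Normal :=
      ConjAct.normal_of_characteristic_of_normal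
    have hS'q : IsPGroup ℓ ((S : Subgroup (Cfsg.fittingSubgroup Λ)).map
        (Cfsg.fittingSubgroup Λ).subtype) := S.isPGroup'.map _
    have hle : (S : Subgroup (Cfsg.fittingSubgroup Λ)).map (Cfsg.fittingSubgroup Λ).subtype ≤
        Cfsg.pCore q Λ ⊔ Cfsg.pCore r Λ := by
      by_cases h1 : ℓ = q
      · subst h1
        exact (Cfsg.Agent.Lib.Helper55.le_pCore hS'n hS'q).trans le_sup_left
      · by_cases h2 : ℓ = r
        · subst h2
          exact (Cfsg.Agent.Lib.Helper55.le_pCore hS'n hS'q).trans le_sup_right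
        · obtain ⟨n, hn⟩ := IsPGroup.iff_card.mp hS'q
          have hn0 : n = 0 := by
            by_contra hn0
            have hd : ℓ ∣ Nat.card Λ :=
              (dvd_pow_self ℓ hn0).trans (hn ▸ Subgroup.card_subgroup_dvd_card _)
            rcases hcard ℓ hℓ.out hd with h | h
            · exact h1 h
            · exact h2 h
          rw [hn0, pow_zero] at hn
          rw [Subgroup.card_eq_one.mp hn]
          exact bot_le
    intro x hx
    rw [Subgroup.mem_subgroupOf]
    exact hle (Subgroup.mem_map_of_mem _ hx)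
  rw [Subgroup.subgroupOf_eq_top] at htop
  exact htop

/-- **P10-B (PkgCoreB)** -/
theorem pkgCoreB : PkgCoreB.{u} := by
  intro hA Λ _ q r FV FU h hqr
  haveI : Finite Λ := h.fin
  haveI : Group.IsSolvable Λ := h.solv
  have hq : q.Prime := h.pprime
  have hr : r.Prime := h.p'prime
  haveI : Fact q.Prime := ⟨hq⟩
  haveI : Fact r.Prime := ⟨hr⟩
  obtain ⟨wq, hwqp, hwq5, hwq6⟩ := hA h
  obtain ⟨wr, hwrp, hwr5, -⟩ := hA h.symm
  obtain ⟨x, y, hx, hy, hxy, hyn⟩ := h.rank
  have hr2 : r ≠ 2 := by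
    have := hq.two_le
    omega
  have hOrp : IsPGroup r (Cfsg.pCore r Λ) := Cfsg.Agent.Lib.Helper22.pCore_isPGroup' r Λ
  have hOqp : IsPGroup q (Cfsg.pCore q Λ) := Cfsg.Agent.Lib.Helper22.pCore_isPGroup' q Λ
  -- `O_r(Λ)` is cyclic, hence abelian
  have hOr_ab : ∀ a ∈ Cfsg.pCore r Λ, ∀ b ∈ Cfsg.pCore r Λ, a * b = b * a := by
    have key : ∀ H : Subgroup ↥(Cfsg.pCore r Λ), Nat.card H = r →
        H = (Subgroup.zpowers wr).subgroupOf (Cfsg.pCore r Λ) := by
      intro H hH
      have hle : H ≤ (Subgroup.zpowers wr).subgroupOf (Cfsg.pCore r Λ) := by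
        intro d hd
        rw [Subgroup.mem_subgroupOf]
        apply hwr5 d.1 d.2
        have h1 : (⟨d, hd⟩ : H) ^ Nat.card H = 1 := pow_card_eq_one'
        rw [hH] at h1
        have h2 := congrArg (fun z : H => ((z : ↥(Cfsg.pCore r Λ)) : Λ)) h1
        simpa using h2
      apply Subgroup.eq_of_le_of_card_ge hle
      rw [hH]
      have h3 : Nat.card ((Subgroup.zpowers wr).subgroupOf (Cfsg.pCore r Λ)) ∣
          Nat.card (Subgroup.zpowers wr) :=
        Subgroup.card_comap_dvd_of_injective _ _ (Subgroup.subtype_injective _)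
      have h4 : Nat.card (Subgroup.zpowers wr) ∣ r := by
        rw [Nat.card_zpowers]
        exact orderOf_dvd_of_pow_eq_one hwrp
      exact Nat.le_of_dvd hr.pos (h3.trans h4)
    have huniq : ∀ H K : Subgroup ↥(Cfsg.pCore r Λ), Nat.card H = r → Nat.card K = r →
        H = K := by
      intro H K hH hK
      rw [key H hH, key K hK]
    rcases Cfsg.Agent.S0016.result r hOrp huniq with hcyc | ⟨h2, _⟩
    · intro a ha b hb
      obtain ⟨g, hg⟩ := IsCyclic.exists_generator (α := ↥(Cfsg.pCore r Λ))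
      obtain ⟨i, hi⟩ := Subgroup.mem_zpowers_iff.mp (hg ⟨a, ha⟩)
      obtain ⟨j, hj⟩ := Subgroup.mem_zpowers_iff.mp (hg ⟨b, hb⟩)
      have hi' : (g : Λ) ^ i = a := by
        have := congrArg Subtype.val hi
        simpa using this
      have hj' : (g : Λ) ^ j = b := by
        have := congrArg Subtype.val hj
        simpa using this
      rw [← hi', ← hj']
      exact (Commute.zpow_zpow (Commute.refl (g : Λ)) i j).eq
    · exact absurd h2 hr2
  have hqOr : ¬ q ∣ Nat.card (Cfsg.pCore r Λ) := by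
    obtain ⟨n, hn⟩ := IsPGroup.iff_card.mp hOrp
    rw [hn]
    intro hd
    exact h.ne ((Nat.prime_dvd_prime_iff_eq hq hr).mp (hq.dvd_of_dvd_pow hd))
  have hFle : Cfsg.fittingSubgroup Λ ≤ Cfsg.pCore q Λ ⊔ Cfsg.pCore r Λ :=
    fitting_le_sup_two h.card
  -- every element of order `q` lies in `⟨w_q⟩`
  have hmain : ∀ x : Λ, orderOf x = q → x ∈ Subgroup.zpowers wq := by
    intro x hx
    have hxq : ∀ g ∈ Cfsg.pCore q Λ, x * g = g * x := hwq6 x hx
    have hxr : ∀ g ∈ Cfsg.pCore r Λ, x * g = g * x :=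
      h.nf x (by rw [hx]; exact hq) (Cfsg.pCore r Λ) hOr_ab (by rw [hx]; exact hqOr)
        (fun k hk => (Cfsg.Agent.Lib.Helper22.pCore_normal' r Λ).conj_mem k hk x)
    have hle : Cfsg.pCore q Λ ⊔ Cfsg.pCore r Λ ≤ Subgroup.centralizer ({x} : Set Λ) := by
      refine sup_le ?_ ?_
      · intro g hg
        refine Subgroup.mem_centralizer_iff.mpr ?_
        intro z hz
        rw [Set.mem_singleton_iff.mp hz]
        exact hxq g hg
      · intro g hg
        refine Subgroup.mem_centralizer_iff.mpr ?_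
        intro z hz
        rw [Set.mem_singleton_iff.mp hz]
        exact hxr g hg
    have hxF : x ∈ Cfsg.fittingSubgroup Λ := by
      apply Cfsg.Agent.S0044.result
      refine Subgroup.mem_centralizer_iff.mpr ?_
      intro f hf
      exact (Subgroup.mem_centralizer_iff.mp (hle (hFle hf)) x rfl).symm
    obtain ⟨a, ha, b, hb, hxab⟩ := mem_sup_of_normalizes (Cfsg.pCore q Λ) (Cfsg.pCore r Λ)
      (fun d _ n hn => (Cfsg.Agent.Lib.Helper22.pCore_normal' q Λ).conj_mem n hn d) (hFle hxF)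
    obtain ⟨k, hk⟩ := hOqp ⟨a, ha⟩
    have hak : a ^ q ^ k = 1 := by
      have := congrArg Subtype.val hk
      simpa using this
    obtain ⟨j, hj⟩ := hOrp ⟨b, hb⟩
    have hbj : b ^ r ^ j = 1 := by
      have := congrArg Subtype.val hj
      simpa using this
    have hxa : Commute x a := hxq a ha
    have hxqp : x ^ q = 1 := by rw [← hx]; exact pow_orderOf_eq_one x
    have hb' : b = a⁻¹ * x := by rw [hxab]; group
    have e1 : (a⁻¹) ^ (q ^ k * q) = 1 := by rw [inv_pow, pow_mul, hak, one_pow, inv_one]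
    have e2 : x ^ (q ^ k * q) = 1 := by rw [mul_comm, pow_mul, hxqp, one_pow]
    have hbq : b ^ (q ^ k * q) = 1 := by
      rw [hb', (show Commute a⁻¹ x from hxa.symm.inv_left).mul_pow, e1, e2, one_mul]
    have h1 : orderOf b ∣ q ^ k * q := orderOf_dvd_of_pow_eq_one hbq
    have h2 : orderOf b ∣ r ^ j := orderOf_dvd_of_pow_eq_one hbj
    have hcop : (q ^ k * q).Coprime (r ^ j) := by
      have h0 : q.Coprime r := (Nat.coprime_primes hq hr).mpr h.ne
      exact Nat.Coprime.pow_right j (Nat.Coprime.mul_left (Nat.Coprime.pow_left k h0) h0)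
    have h3 : orderOf b = 1 := Nat.eq_one_of_dvd_coprimes hcop h1 h2
    have hb1 : b = 1 := orderOf_eq_one_iff.mp h3
    rw [hb1, mul_one] at hxab
    rw [hxab]
    apply hwq5 a ha
    rw [← hxab]
    exact hxqp
  have hxz := hmain x hx
  have hyz := hmain y hy
  have hx1 : x ≠ 1 := by
    rintro rfl
    rw [orderOf_one] at hx
    exact hq.ne_one hx.symm
  have hwq1 : wq ≠ 1 := by
    rintro rfl
    rw [Subgroup.zpowers_one_eq_bot, Subgroup.mem_bot] at hxz
    exact hx1 hxz
  have hwqo : orderOf wq = q := orderOf_eq_prime hwqp hwq1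
  have hwx : wq ∈ Subgroup.zpowers x := mem_zpowers_of_prime hq hwqo hxz hx1
  exact hyn ((Subgroup.zpowers_le).mpr hwx hyz)

end Cfsg.Agent.Lib.Helper22.FP
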